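import Mathlib
import Cfsg.Agent.H11.Bridge2

/-! Vanishing of the first cohomology of small orthogonal groups over the field with two elements. -/

set_option autoImplicit false
set_option linter.unusedSectionVars false

namespace Cfsg.Agent.GO.H1O

open Cfsg H11 Matrix

section
variable {V : Type*} [AddCommGroup V] [Module (ZMod 2) V] [Finite V] {B : V →ₗ[ZMod 2] V →ₗ[ZMod 2] ZMod 2} {Q : V → ZMod 2}
  {F : Isom B Q → V} {a b c d u w : V}

theorem vv (x : V) : x + x = 0 := by rw [← two_smul (ZMod 2), show (2 : ZMod 2) = 0 from rfl, zero_smul]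

theorem rf (h : IsQuad B Q) (hu : Q u = 1) (x : V) : (h.reflO u).1 x = x + B u x • u := by
  rw [h.reflO_apply, hu, inv_one, one_mul, sub_eq_add_neg, neg_eq_of_add_eq_zero_left (vv _)]

theorem bb (h : IsQuad B Q) (x : V) : B x x = 0 := by rw [h.diag', show (2 : ZMod 2) = 0 from rfl, zero_mul]

/-- crossed homomorphisms on the commutator subgroup -/
structure Cr (h : IsQuad B Q) (F : Isom B Q → V) : Prop where
  mem : ∀ g, g ∈ commutator (Isom B Q) ↔
    g ∈ Subgroup.closure {x | ∃ u v, Q u ≠ 0 ∧ Q v ≠ 0 ∧ x = h.reflO u * h.reflO v}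
  mul : ∀ g ∈ commutator (Isom B Q), ∀ k ∈ commutator (Isom B Q), F (g * k) = F g + g.1 (F k)

variable {h : IsQuad B Q}

theorem Cr.m (H : Cr h F) (hu : Q u = 1) (hw : Q w = 1) : h.reflO u * h.reflO w ∈ commutator (Isom B Q) :=
  (H.mem _).2 (Subgroup.subset_closure ⟨u, w, by simp [hu], by simp [hw], rfl⟩)

theorem Cr.one (H : Cr h F) : F 1 = 0 := by simpa using H.mul 1 (one_mem _) 1 (one_mem _)

theorem Cr.tr (H : Cr h F) (ha : Q a = 1) (hb : Q b = 1) (hc : Q c = 1) : F (h.reflO a * h.reflO c) =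
    F (h.reflO a * h.reflO b) + (h.reflO a).1 ((h.reflO b).1 (F (h.reflO b * h.reflO c))) := by
  rw [← LinearEquiv.mul_apply, ← Subgroup.coe_mul, ← H.mul _ (H.m ha hb) _ (H.m hb hc), mul_assoc, ← mul_assoc (h.reflO b),
    h.reflO_mul_self, one_mul]

theorem Cr.two (H : Cr h F) (ha : Q a = 1) (hb : Q b = 1) (e : B a b = 0) :
    B b (F (h.reflO a * h.reflO b)) • b + B a (F (h.reflO a * h.reflO b)) • a = 0 := by
  have h1 := H.tr ha hb ha
  have : h.reflO b * h.reflO a = h.reflO a * h.reflO b := by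
    rw [eq_comm, ← mul_inv_eq_iff_eq_mul, h.conj_reflO, h.reflO_of_perp e]
  rw [this, h.reflO_mul_self, H.one, rf h ha, rf h hb, map_add, map_smul, e, smul_zero, add_zero, ← add_assoc, ← add_assoc,
    vv, zero_add] at h1
  exact h1.symm

theorem Cr.three (H : Cr h F) (ha : Q a = 1) (hb : Q b = 1) (e : B a b = 1) :
    F (h.reflO a * h.reflO b) = B b (F (h.reflO a * h.reflO b)) • a + B a (F (h.reflO a * h.reflO b)) • b := by
  have e' : B b a = 1 := (h.comm _ _).trans e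
  have c1 : h.reflO a * h.reflO b * (h.reflO a * h.reflO b) = h.reflO b * h.reflO a := by
    have h1 := h.conj_reflO (h.reflO a) b
    have h2 := h.conj_reflO (h.reflO b) a
    rw [rf h ha, e, h.reflO_inv] at h1
    rw [rf h hb, e', h.reflO_inv, one_smul, add_comm, ← one_smul (ZMod 2) a, ← h1, one_smul] at h2
    rw [← mul_assoc, ← h2, mul_assoc, h.reflO_mul_self, mul_one]
  have h1 := H.tr ha hb ha
  rw [← c1, H.mul _ (H.m ha hb) _ (H.m ha hb), h.reflO_mul_self, H.one] at h1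
  generalize F (h.reflO a * h.reflO b) = y at h1 ⊢
  simp only [Subgroup.coe_mul, LinearEquiv.mul_apply, rf h ha, rf h hb, map_add, map_smul, e, e', bb h] at h1
  generalize B a y = p at h1 ⊢
  generalize B b y = q at h1 ⊢
  refine sub_eq_zero.1 (Eq.trans ?_ h1.symm)
  clear h1
  match_scalars <;> (first | rfl | (revert p q; decide))

theorem Cr.path (H : Cr h F) (ha : Q a = 1) (hb : Q b = 1) (hc : Q c = 1) (hd : Q d = 1) (ab : B a b = 1) (bc : B b c = 1)
    (cd : B c d = 1) (ac : B a c = 0) (ad : B a d = 0) (bd : B b d = 0) (e1 : F (h.reflO a * h.reflO b) = 0)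
    (e2 : F (h.reflO c * h.reflO d) = 0) : F (h.reflO b * h.reflO c) = 0 := by
  have h1 := H.three hb hc bc
  have h2 := congrArg (B d) (H.two ha hc ac)
  have h3 := congrArg (B a) (H.two hb hd bd)
  rw [H.tr ha hb hc, e1] at h2
  rw [H.tr hb hc hd, e2] at h3
  generalize F (h.reflO b * h.reflO c) = y at h1 h2 h3 ⊢
  simp [rf h ha, rf h hb, ab, ad, h.comm d c, cd, h.comm d a, h.comm c b, bc, h.comm c a, ac] at h2 h3
  simp [h3] at h2
  simpa [h2, h3] using h1

theorem main (h : IsQuad B Q) (hB : B.SeparatingLeft) (hex : NonExc B Q) {n : ℕ} (α : Fin (n + 1) → V) (m : Fin (n + 1) → Fin (n + 1)) (ht : V → ℕ)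
    (hα : ∀ i, Q (α i) = 1 ∧ m (m i) = i ∧ B (α i) (α (m i)) = 1 ∧ (i = 0 ∨ ∃ j < i, j = m i ∨ B (α j) (α i) = 1 ∧
      B (α (m j)) (α i) = 0 ∧ B (α (m j)) (α (m i)) = 0 ∧ B (α j) (α (m i)) = 0))
    (orb : ∀ u, ((∀ i, B (α i) u = 0) → u = 0) ∧ (Q u ≠ 0 → (∃ i, u = α i) ∨ ∃ i, ht (u + B (α i) u • α i) < ht u))
    (cV : Nat.card V = 2 ^ (n + 1))
    (hF : ∀ g ∈ commutator (Isom B Q), ∀ k ∈ commutator (Isom B Q), F (g * k) = F g + g.1 (F k)) :
    ∃ v, ∀ g ∈ commutator (Isom B Q), F g = g.1 v - v := by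
  have H0 : Cr h F := ⟨fun g => by
    rw [h.mem_closure_pairs_iff hB hex, h.mem_commutator_iff_of_char_two hB hex rfl], hF⟩
  obtain ⟨v, hv⟩ := ((Function.Injective.bijective_of_nat_card_le (f := LinearMap.pi fun i => B (α i))
    ((injective_iff_map_eq_zero _).2 fun u e => (orb u).1 (congrFun e)) (by simp [cV])).2
      fun i => B (α (m i)) (F (h.reflO (α (m i)) * h.reflO (α i))))
  replace hv : ∀ i, B (α i) v = _ := congrFun hv
  have H : Cr h fun g => F g - (g.1 v - v) := ⟨H0.mem, fun g hg k hk => by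
    simp only [hF g hg k hk, map_sub, Subgroup.coe_mul, LinearEquiv.mul_apply]; abel⟩
  refine ⟨v, fun g hg => sub_eq_zero.1 ?_⟩
  have q := fun i => (hα i).1
  have k1 : ∀ i, B (α (m i)) ((fun g : Isom B Q => F g - (g.1 v - v)) (h.reflO (α (m i)) * h.reflO (α i))) = 0 := fun i => by
    simp [rf h (q _), bb h, h.comm (α (m i)) (α i), (hα i).2.2.1, hv i]
  change (fun g : Isom B Q => F g - (g.1 v - v)) g = 0
  generalize (fun g : Isom B Q => F g - (g.1 v - v)) = F at H k1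
  have k2 : ∀ i, F (h.reflO (α i) * h.reflO (α (m i))) = 0 := fun i => by
    have e := (hα i).2.2.1
    have e' := (h.comm _ _).trans e
    have h2 := H.three (q (m i)) (q i) e'
    have h3 := H.tr (q i) (q (m i)) (q i)
    have h4 := k1 (m i)
    rw [(hα i).2.1] at h4
    rw [k1, zero_smul, add_zero] at h2
    rw [h.reflO_mul_self, H.one, h2] at h3
    have h5 : B (α i) (F (h.reflO (α (m i)) * h.reflO (α i))) = 0 := by
      simpa [rf h (q _), bb h, e, h4, eq_comm] using congrArg (B (α i)) h3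
    simpa [h5] using h3.symm
  let K : Subgroup (Isom B Q) := ⟨⟨⟨{g | g ∈ commutator _ ∧ F g = 0}, fun a b => ⟨mul_mem a.1 b.1, by
    rw [H.mul _ a.1 _ b.1, a.2, b.2, map_zero, add_zero]⟩⟩, one_mem _, H.one⟩, fun {x} a => ⟨inv_mem a.1, by
      simpa [a.2, H.one] using (H.mul _ a.1 _ (inv_mem a.1)).symm⟩⟩
  have sw : ∀ u w, h.reflO u * h.reflO w ∈ K → h.reflO w * h.reflO u ∈ K := fun u w e => by
    simpa only [_root_.mul_inv_rev, h.reflO_inv] using inv_mem e
  have tr : ∀ u w t, h.reflO u * h.reflO w ∈ K → h.reflO w * h.reflO t ∈ K → h.reflO u * h.reflO t ∈ K := fun u w t e e' => by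
    have := mul_mem e e'
    rwa [mul_assoc, ← mul_assoc (h.reflO w), h.reflO_mul_self, one_mul] at this
  have k3 : ∀ i, h.reflO (α 0) * h.reflO (α i) ∈ K := fun i => by
    induction i using WellFoundedLT.induction with
    | ind i ih =>
      rcases (hα i).2.2.2 with rfl | ⟨j, hj, rfl | e⟩
      · rw [h.reflO_mul_self]; exact one_mem _
      · exact tr _ _ _ (ih _ hj) (sw _ _ ⟨H.m (q _) (q _), k2 i⟩)
      · refine tr _ _ _ (ih _ hj) ⟨H.m (q _) (q _), H.path (q (m j)) (q j) (q i) (q (m i)) ((h.comm _ _).trans (hα j).2.2.1) e.1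
          (hα i).2.2.1 e.2.1 e.2.2.1 e.2.2.2 (sw _ _ ⟨H.m (q _) (q _), k2 j⟩).2 (k2 i)⟩
  have cc : ∀ u x, h.reflO u * (h.reflO u * x) = x := fun u x => by rw [← mul_assoc, h.reflO_mul_self, one_mul]
  have k4 : ∀ u, Q u ≠ 0 → h.reflO (α 0) * h.reflO u ∈ K := fun u => by
    induction hN : ht u using Nat.strong_induction_on generalizing u with
    | _ N ih =>
      intro hu
      rcases (orb u).2 hu with ⟨i, rfl⟩ | ⟨i, e⟩
      · exact k3 i
      rw [← rf h (q i)] at e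
      have := mul_mem (mul_mem (k3 i) (sw _ _ (ih _ (hN ▸ e) _ rfl (by rwa [(h.reflO _).2.2])))) (k3 i)
      rw [← h.conj_reflO, h.reflO_inv] at this
      simpa only [mul_assoc, cc, h.reflO_mul_self, mul_one] using this
  refine ((Subgroup.closure_le K).2 ?_ ((H.mem g).1 hg)).2
  rintro _ ⟨u, w, hu, hw, rfl⟩
  exact tr _ _ _ (sw _ _ (k4 u hu)) (k4 w hw)

end

variable {ι : Type} [Fintype ι] [DecidableEq ι]

/-- vectors from bit patterns -/
def vec (ix : ι → ℕ) (k : ℕ) : ι → ZMod 2 := fun i => if k.testBit (ix i) then 1 else 0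

/-- heights from a packed table -/
def hgt (ix : ι → ℕ) (N : ℕ) (u : ι → ZMod 2) : ℕ := N >>> (5 * ∑ i, (u i).val <<< ix i) % 32

theorem main' {B : (ι → ZMod 2) →ₗ[ZMod 2] (ι → ZMod 2) →ₗ[ZMod 2] ZMod 2} {Q : (ι → ZMod 2) → ZMod 2} (h : IsQuad B Q)
    (H : ∀ F : Isom B Q → ι → ZMod 2, (∀ g ∈ commutator (Isom B Q), ∀ k ∈ commutator (Isom B Q), F (g * k) = F g + g.1 (F k)) →
      ∃ v, ∀ g ∈ commutator (Isom B Q), F g = g.1 v - v) (f : Omega (ZMod 2) Q → ι → ZMod 2)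
    (hf : ∀ g k, f (g * k) = f g + g.1.1.1 *ᵥ f k) : ∃ v, ∀ g, f g = g.1.1.1 *ᵥ v - v := by
  classical
  obtain ⟨v, hv⟩ := H (fun g => if e : g ∈ commutator (Isom B Q) then f ((omegaEquiv h).symm ⟨g, e⟩) else 0) fun g hg k hk => by
    rw [dif_pos hg, dif_pos hk, dif_pos (mul_mem hg hk), ← MulMemClass.mk_mul_mk _ g k hg hk, map_mul, hf]
    congr 1
    exact congrArg (fun x : commutator (Isom B Q) => x.1.1 _) ((omegaEquiv h).apply_symm_apply ⟨g, hg⟩)
  refine ⟨v, fun g => ?_⟩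
  have := hv _ (omegaEquiv h g).2
  rw [dif_pos (omegaEquiv h g).2, Subtype.coe_eta, MulEquiv.symm_apply_apply] at this
  exact this

/-- coordinates -/
def ixm (m : ℕ) : (Fin m ⊕ Fin m) ⊕ Fin 2 → ℕ := Sum.elim (Sum.elim (·.1) (m + ·.1)) (2 * m + ·.1)

theorem an : ∀ z₁ z₂ : ZMod 2, z₁ ^ 2 + 1 * z₁ * z₂ + 1 * z₂ ^ 2 = 0 → z₁ = 0 ∧ z₂ = 0 := by decide

set_option synthInstance.maxSize 1024 in
theorem ne4 : ∀ u v, quadFormMinus 1 (ZMod 2) 1 1 u = 0 → quadFormMinus 1 (ZMod 2) 1 1 v = 0 → bMinus 1 (ZMod 2) 1 1 u v = 0 →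
    u = 0 ∨ v = 0 ∨ v = u := by decide +kernel

theorem m4 (f : Omega (ZMod 2) (quadFormMinus 1 (ZMod 2) 1 1) → _ → ZMod 2)
    (hf : ∀ g k, f (g * k) = f g + g.1.1.1 *ᵥ f k) : ∃ v, ∀ g, f g = g.1.1.1 *ᵥ v - v :=
  main' (isQuad_minus 1 _ 1 1) (fun _ => main (isQuad_minus 1 _ 1 1) (bMinus_sep 1 an) (fun u v a b c d e => by
      rcases ne4 u v a b c with h | h | h
      exacts [absurd h d, absurd (h.trans (zero_smul _ u).symm) (e 0), absurd (h.trans (one_smul _ u).symm) (e 1)]) (n := 3)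
    (fun i => vec (ixm 1) (![4, 8, 5, 3] i)) ![1, 0, 3, 2] (hgt (ixm 1) 0x82100c400040000000) (by decide +kernel)
    (by decide +kernel) (by simp)) f hf

theorem m6 (f : Omega (ZMod 2) (quadFormMinus 2 (ZMod 2) 1 1) → _ → ZMod 2)
    (hf : ∀ g k, f (g * k) = f g + g.1.1.1 *ᵥ f k) : ∃ v, ∀ g, f g = g.1.1.1 *ᵥ v - v :=
  main' (isQuad_minus 2 _ 1 1) (fun _ => main (isQuad_minus 2 _ 1 1) (bMinus_sep 2 an)
    ((isQuad_minus 2 _ 1 1).nonExc_of_finrank (bMinus_sep 2 an) (by simp)) (n := 5)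
    (fun i => vec (ixm 2) (![16, 32, 17, 5, 7, 10] i)) ![1, 0, 3, 2, 5, 4]
    (hgt (ixm 2) 0x3800300086008021942130004000a500c03210404000200067004011180002420500000000000000) (by decide +kernel)
    (by decide +kernel) (by simp)) f hf

theorem p8 (f : Omega (ZMod 2) (quadFormPlus 4 (ZMod 2)) → _ → ZMod 2)
    (hf : ∀ g k, f (g * k) = f g + g.1.1.1 *ᵥ f k) : ∃ v, ∀ g, f g = g.1.1.1 *ᵥ v - v :=
  main' (isQuad_plus 4 _) (fun _ => main (isQuad_plus 4 _) (bPlus_sep 4 _) ((isQuad_plus 4 _).nonExc_of_finrank (bPlus_sep 4 _) (by simp)) (n := 7)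
    (fun i => vec (Sum.elim (·.1) (4 + ·.1)) (![17, 35, 21, 68, 76, 136, 42, 19] i)) ![1, 0, 3, 2, 5, 4, 7, 6]
    (hgt (Sum.elim (·.1) (4 + ·.1)) 0x1c60180154801300d6030800002c40024a22800c0100018040200880040000002dca94c4e10000020014400140118001840002a5002692ac002840001c0501c0778060c80e0358ca448c0000000000050012009807000a009c00022b1ac000016f1b40002409780200440f680205410000000832000000000da001420005a0007602300020000130000700070040d00c0700000000000000000000000000000)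
    (by decide +kernel) (by decide +kernel) (by simp)) f hf

end Cfsg.Agent.GO.H1O
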